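import Mathlib

/-!
The Sylow 2-subgroups of the centraliser of a transvection in `SL(5,2)` have centre of order 2.
-/

namespace Cfsg.Agent.SporRec

open Matrix

/-- Position of a coordinate in the flag `e0, e2, e3, e4, e1`. -/
def tvPos : Fin 5 → ℕ := ![0, 4, 1, 2, 3]

local notation "SL52" => Matrix.SpecialLinearGroup (Fin 5) (ZMod 2)

theorem tvPos_injective : Function.Injective tvPos := by decide

/-- The triangular subgroup for the flag `e0, e2, e3, e4, e1`. -/
def tvU : Subgroup SL52 where
  carrier := {M | (M : Matrix (Fin 5) (Fin 5) (ZMod 2)).BlockTriangular tvPos}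
  one_mem' := by
    show (1 : Matrix (Fin 5) (Fin 5) (ZMod 2)).BlockTriangular tvPos
    exact blockTriangular_one
  mul_mem' := by
    intro a b ha hb
    exact BlockTriangular.mul (M := (a : Matrix (Fin 5) (Fin 5) (ZMod 2))) ha hb
  inv_mem' := by
    intro a ha
    have h1 : a⁻¹ = a ^ (orderOf a - 1) := inv_eq_of_mul_eq_one_left <| by
      rw [← pow_succ, Nat.sub_add_cancel (orderOf_pos a), pow_orderOf_eq_one]
    have hk : ∀ k : ℕ, ((a ^ k : SL52) : Matrix (Fin 5) (Fin 5) (ZMod 2)).BlockTriangular tvPos := by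
      intro k
      induction k with
      | zero => exact blockTriangular_one
      | succ k ih => rw [pow_succ]; exact BlockTriangular.mul (N := (a : Matrix (Fin 5) (Fin 5) (ZMod 2))) ih ha
    rw [h1]
    exact hk _

theorem mem_tvU {M : SL52} :
    M ∈ tvU ↔ (M : Matrix (Fin 5) (Fin 5) (ZMod 2)).BlockTriangular tvPos := Iff.rfl

theorem tv_det_of_upper (M : Matrix (Fin 5) (Fin 5) (ZMod 2))
    (h : M.BlockTriangular tvPos) : M.det = ∏ i, M i i := by
  have key : ∀ σ : Fin 5 ≃ Fin 5, (∀ i, tvPos (σ i) = i.val) →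
      (M.submatrix σ σ).BlockTriangular (id : Fin 5 → Fin 5) := by
    intro σ hσ i j hij
    exact h (show tvPos (σ j) < tvPos (σ i) by rw [hσ, hσ]; exact hij)
  let σ : Fin 5 ≃ Fin 5 := ⟨![0, 2, 3, 4, 1], ![0, 4, 1, 2, 3], by decide, by decide⟩
  have h2 := key σ (by decide)
  rw [← det_submatrix_equiv_self σ M, det_of_isUpperTriangular h2]
  exact Fintype.prod_equiv σ _ _ (fun i => rfl)

theorem tvU_diag {M : SL52} (hM : M ∈ tvU) (i : Fin 5) :
    (M : Matrix (Fin 5) (Fin 5) (ZMod 2)) i i = 1 := by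
  have h := tv_det_of_upper _ hM
  rw [M.prop] at h
  have two : ∀ x : ZMod 2, x ≠ 0 → x = 1 := by decide
  exact two _ fun h0 => one_ne_zero (h.trans (Finset.prod_eq_zero (Finset.mem_univ i) h0))

/-- The ten free positions of `tvU`. -/
abbrev TvFree : Type := {p : Fin 5 × Fin 5 // tvPos p.1 < tvPos p.2}

/-- A triangular matrix from its ten free entries. -/
def tvMat (f : TvFree → ZMod 2) : Matrix (Fin 5) (Fin 5) (ZMod 2) :=
  Matrix.of fun i j => if h : tvPos i < tvPos j then f ⟨(i, j), h⟩ else if i = j then 1 else 0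

theorem tvMat_blockTriangular (f : TvFree → ZMod 2) : (tvMat f).BlockTriangular tvPos := by
  intro i j hij
  have h1 : ¬ tvPos i < tvPos j := Nat.lt_asymm hij
  have h2 : i ≠ j := fun h => by subst h; exact Nat.lt_irrefl _ hij
  simp [tvMat, h1, h2]

theorem tvMat_det (f : TvFree → ZMod 2) : (tvMat f).det = 1 := by
  rw [tv_det_of_upper _ (tvMat_blockTriangular f)]
  simp [tvMat]

theorem tvU_card : Nat.card tvU = 2 ^ 10 := by
  let e : tvU ≃ (TvFree → ZMod 2) :=
    { toFun := fun M p => ((M : SL52) : Matrix (Fin 5) (Fin 5) (ZMod 2)) p.1.1 p.1.2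
      invFun := fun f => ⟨⟨tvMat f, tvMat_det f⟩, tvMat_blockTriangular f⟩
      left_inv := by
        intro M
        refine Subtype.ext (Subtype.ext (Matrix.ext fun i j => ?_))
        by_cases h : tvPos i < tvPos j
        · simp [tvMat, h]
        · by_cases h' : i = j
          · subst h'
            simp [tvMat, tvU_diag M.2]
          · have hlt : tvPos j < tvPos i :=
              lt_of_le_of_ne (not_lt.1 h) fun h'' => h' (tvPos_injective h'').symm
            simp only [tvMat, Matrix.of_apply, dif_neg h, if_neg h']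
            exact (M.2 hlt).symm
      right_inv := by
        intro f
        funext p
        simp [tvMat, p.2] }
  rw [Nat.card_congr e, Nat.card_fun, Nat.card_zmod, Nat.card_eq_fintype_card]
  rfl

theorem tv_card_sl52 : Nat.card SL52 = 9999360 := by
  have e : SL52 ≃ GL (Fin 5) (ZMod 2) := by
    refine Equiv.ofBijective (SpecialLinearGroup.toGL) ⟨?_, ?_⟩
    · intro a b h
      exact Subtype.ext (congrArg Units.val h)
    · intro g
      have hd : (g : Matrix (Fin 5) (Fin 5) (ZMod 2)).det = 1 := by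
        have two : ∀ x : ZMod 2, x ≠ 0 → x = 1 := by decide
        exact two _ ((isUnit_iff_isUnit_det _).1 g.isUnit).ne_zero
      refine ⟨⟨_, hd⟩, Units.ext ?_⟩
      simp [SpecialLinearGroup.toGL]
  rw [Nat.card_congr e, Matrix.card_GL_field, Fintype.card_eq_nat_card, Nat.card_zmod,
    Fin.prod_univ_five]
  rfl

theorem tvU_index_odd : ¬ 2 ∣ tvU.index := by
  have h := tvU.card_mul_index
  rw [tvU_card, tv_card_sl52] at h
  omega

theorem tvU_le_centralizer (s : SL52)
    (hs : (s : Matrix (Fin 5) (Fin 5) (ZMod 2)) = Matrix.transvection 0 1 1) :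
    tvU ≤ Subgroup.centralizer ({s} : Set SL52) := by
  intro M hM
  rw [Subgroup.mem_centralizer_singleton_iff]
  refine Subtype.ext ?_
  show (M : Matrix (Fin 5) (Fin 5) (ZMod 2)) * (s : Matrix (Fin 5) (Fin 5) (ZMod 2)) =
    (s : Matrix (Fin 5) (Fin 5) (ZMod 2)) * (M : Matrix (Fin 5) (Fin 5) (ZMod 2))
  rw [hs]
  have h10 : ∀ k, k ≠ 0 → (M : Matrix (Fin 5) (Fin 5) (ZMod 2)) k 0 = 0 := fun k hk =>
    hM (show tvPos 0 < tvPos k by revert hk; revert k; decide)
  have h1 : ∀ k, k ≠ 1 → (M : Matrix (Fin 5) (Fin 5) (ZMod 2)) 1 k = 0 := fun k hk =>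
    hM (show tvPos k < tvPos 1 by revert hk; revert k; decide)
  have d0 := tvU_diag hM 0
  have d1 := tvU_diag hM 1
  simp only [Matrix.transvection, mul_add, add_mul, mul_one, one_mul, add_right_inj]
  ext i j
  by_cases hi : i = 0 <;> by_cases hj : j = 1
  · subst hi hj; simp [d0, d1]
  · subst hi; simp [Matrix.mul_single_apply_of_ne, hj, h1 j hj]
  · subst hj; simp [Matrix.single_mul_apply_of_ne, hi, h10 i hi]
  · simp [Matrix.single_mul_apply_of_ne, Matrix.mul_single_apply_of_ne, hi, hj]

theorem tvU_center (s : SL52)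
    (hs : (s : Matrix (Fin 5) (Fin 5) (ZMod 2)) = Matrix.transvection 0 1 1)
    (M : SL52) (hM : M ∈ tvU) (hc : ∀ u ∈ tvU, u * M = M * u) : M = 1 ∨ M = s := by
  let A : Matrix (Fin 5) (Fin 5) (ZMod 2) := M
  have hE : ∀ i j, tvPos i < tvPos j → Commute (Matrix.single i j (1 : ZMod 2)) A := by
    intro i j hij
    have hne : i ≠ j := fun h => by subst h; exact Nat.lt_irrefl _ hij
    let u : SL52 := ⟨Matrix.transvection i j 1, Matrix.det_transvection_of_ne i j hne 1⟩
    have hu : u ∈ tvU := by
      show (Matrix.transvection i j (1 : ZMod 2)).BlockTriangular tvPos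
      exact (blockTriangular_one).add (blockTriangular_single hij.le _)
    have h := congrArg Subtype.val (hc u hu)
    change Matrix.transvection i j (1 : ZMod 2) * A = A * Matrix.transvection i j (1 : ZMod 2) at h
    simp only [Matrix.transvection, mul_add, add_mul, mul_one, one_mul, add_right_inj] at h
    exact h
  have hz : ∀ i j, i ≠ j → ¬ (i = 0 ∧ j = 1) → A i j = 0 := by
    intro i j hij h01
    have tri : tvPos j < tvPos i → A i j = 0 := fun h => hM h
    by_cases hj : j = 2 ∨ j = 3 ∨ j = 4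
    · exact Matrix.col_eq_zero_of_commute_single (hE j 1 (by rcases hj with rfl | rfl | rfl <;> decide)) hij
    · by_cases hi : i = 2 ∨ i = 3 ∨ i = 4
      · exact Matrix.row_eq_zero_of_commute_single (hE 0 i (by rcases hi with rfl | rfl | rfl <;> decide)) hij.symm
      · refine tri ?_
        revert hij h01 hi hj
        clear tri
        revert i j
        decide
  have two : ∀ x : ZMod 2, x = 0 ∨ x = 1 := by decide
  rcases two (A 0 1) with h | h
  · left
    refine Subtype.ext (Matrix.ext fun i j => ?_)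
    by_cases hij : i = j
    · subst hij
      simp [tvU_diag hM]
    · have : A i j = 0 := by
        by_cases h01 : i = 0 ∧ j = 1
        · rw [h01.1, h01.2]; exact h
        · exact hz i j hij h01
      simpa [hij, A] using this
  · right
    refine Subtype.ext (Matrix.ext fun i j => ?_)
    rw [hs]
    by_cases hij : i = j
    · subst hij
      have : ¬ ((0 : Fin 5) = i ∧ (1 : Fin 5) = i) := by revert i; decide
      simp [Matrix.transvection, Matrix.single, tvU_diag hM, this]
    · by_cases h01 : i = 0 ∧ j = 1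
      · rw [h01.1, h01.2]
        simpa [Matrix.transvection, Matrix.single, A] using h
      · have h01' : ¬ ((0 : Fin 5) = i ∧ (1 : Fin 5) = j) := fun h => h01 ⟨h.1.symm, h.2.symm⟩
        simpa [Matrix.transvection, Matrix.single, hij, h01', A] using hz i j hij h01

/-- A central element of a Sylow 2-subgroup of the centraliser of `s` is `1` or `s`. -/
theorem tv_sylow_center (s : SL52)
    (hs : (s : Matrix (Fin 5) (Fin 5) (ZMod 2)) = Matrix.transvection 0 1 1)
    (T : Sylow 2 (Subgroup.centralizer ({s} : Set SL52)))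
    (x : Subgroup.centralizer ({s} : Set SL52)) (hxT : x ∈ T) (hx : ∀ y ∈ T, y * x = x * y) :
    x = 1 ∨ (x : SL52) = s := by
  classical
  have hUle := tvU_le_centralizer s hs
  have hidx : ¬ 2 ∣ (tvU.subgroupOf (Subgroup.centralizer ({s} : Set SL52))).index := fun h =>
    tvU_index_odd (h.trans (Subgroup.relIndex_dvd_index_of_le hUle))
  have hp : IsPGroup 2 (tvU.subgroupOf (Subgroup.centralizer ({s} : Set SL52))) :=
    IsPGroup.of_card (n := 10)
      ((Nat.card_congr (Subgroup.subgroupOfEquivOfLe hUle).toEquiv).trans tvU_card)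
  have : Fact (Nat.Prime 2) := ⟨Nat.prime_two⟩
  let S : Sylow 2 (Subgroup.centralizer ({s} : Set SL52)) := hp.toSylow hidx
  obtain ⟨g, hg⟩ := MulAction.exists_smul_eq (Subgroup.centralizer ({s} : Set SL52)) S T
  have hmem : ∀ y, y ∈ S → g * y * g⁻¹ ∈ T := by
    intro y hy
    rw [← hg]
    exact Subgroup.smul_mem_pointwise_smul y (MulAut.conj g) (S : Subgroup _) hy
  have hmem' : g⁻¹ * x * g ∈ S := by
    rw [← hg] at hxT
    have := (Subgroup.mem_pointwise_smul_iff_inv_smul_mem (a := MulAut.conj g)).1 hxT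
    have h' : g⁻¹ * x * g ∈ (S : Subgroup (Subgroup.centralizer ({s} : Set SL52))) := by simpa using this
    exact h'
  have hcen : ∀ u ∈ tvU, u * ((g⁻¹ * x * g : _) : SL52) = ((g⁻¹ * x * g : _) : SL52) * u := by
    intro u hu
    let v : Subgroup.centralizer ({s} : Set SL52) := ⟨u, hUle hu⟩
    have h := hx _ (hmem v ((hp.mem_toSylow hidx).2 (Subgroup.mem_subgroupOf.2 hu)))
    have h2 : v * (g⁻¹ * x * g) = g⁻¹ * x * g * v := by
      calc v * (g⁻¹ * x * g) = g⁻¹ * (g * v * g⁻¹ * x) * g := by group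
        _ = g⁻¹ * (x * (g * v * g⁻¹)) * g := by rw [h]
        _ = g⁻¹ * x * g * v := by group
    have h3 := congrArg (Subgroup.subtype _) h2
    rw [map_mul, map_mul] at h3
    exact h3
  have hscen : ∀ y : Subgroup.centralizer ({s} : Set SL52), (y : SL52) * s = s * y :=
    fun y => Subgroup.mem_centralizer_singleton_iff.1 y.2
  rcases tvU_center s hs ((g⁻¹ * x * g : Subgroup.centralizer ({s} : Set SL52)) : SL52)
    (Subgroup.mem_subgroupOf.1 ((hp.mem_toSylow hidx).1 hmem')) hcen with h | h
  · left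
    have h1 : g⁻¹ * x * g = 1 := Subtype.ext h
    calc x = g * (g⁻¹ * x * g) * g⁻¹ := by group
      _ = 1 := by rw [h1]; group
  · right
    calc (x : SL52) = (g : SL52) * ((g⁻¹ * x * g : _) : SL52) * (g : SL52)⁻¹ := by
          simp only [Subgroup.coe_mul, Subgroup.coe_inv]; group
      _ = s := by rw [h, hscen g, mul_inv_cancel_right]

end Cfsg.Agent.SporRec
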